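import Cfsg.Agent.Coprime.Action
import Cfsg.Agent.Solv.Nilpotent

/-!
# Bounding the derived subgroup under coprime action of `C_q^3`
-/

namespace CF.Bfc

open Subgroup CF.Solv CF.Coprime Cfsg
open scoped Pointwise commutatorElement IsMulCommutative

variable {G : Type*} [Group G]

/-- A quantitative form of Dietzmann's lemma. -/
theorem diet [Finite G] (T : Set G) {N n e : ℕ} (hN : Nat.card T ≤ N) (he : e ≠ 0)
    (hn : ∀ t ∈ T, (centralizer {t}).index ≤ n) (hn0 : n ≠ 0) (ht : ∀ t ∈ T, t ^ e = 1) :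
    Nat.card (closure T) ≤ n ^ N * (n ^ N * e) ^ (n ^ N * N) := by
  have := Fintype.ofFinite T
  have hr : (center (closure T)).index ≤ n ^ N := by
    have h1 : (⨅ t : T, centralizer {(t : G)}).subgroupOf (closure T) ≤ center (closure T) := by
      intro x hx
      rw [mem_subgroupOf, mem_iInf] at hx
      have h2 : closure T ≤ centralizer {(x : G)} := (closure_le _).mpr fun t ht =>
        mem_centralizer_singleton_iff.mpr (mem_centralizer_singleton_iff.mp (hx ⟨t, ht⟩)).symm
      exact mem_center_iff.mpr fun y => Subtype.ext (mem_centralizer_singleton_iff.mp (h2 y.2))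
    refine (Nat.le_of_dvd (Nat.pos_of_ne_zero index_ne_zero_of_finite) (index_dvd_of_le h1)).trans ?_
    refine (relIndex_le_of_le_right le_top (by
      rw [relIndex_top_right]; exact index_ne_zero_of_finite)).trans ?_
    rw [relIndex_top_right]
    refine (index_iInf_le _).trans ((Finset.prod_le_pow_card _ _ n fun (t : T) _ => hn t t.2).trans ?_)
    rw [Finset.card_univ, ← Nat.card_eq_fintype_card]
    exact Nat.pow_le_pow_right (Nat.pos_of_ne_zero hn0) hN
  have hr0 : 0 < (center (closure T)).index := Nat.pos_of_ne_zero index_ne_zero_of_finite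
  have hexp : ∀ z : center (closure T), z ^ ((center (closure T)).index * e) = 1 := by
    intro z
    have h1 : (powMonoidHom e).comp (MonoidHom.transferCenterPow (closure T)) = 1 := by
      refine MonoidHom.eq_of_eqOn_dense closure_closure_coe_preimage fun t h => ?_
      apply Subtype.ext
      apply Subtype.ext
      simp only [MonoidHom.comp_apply, powMonoidHom_apply, SubgroupClass.coe_pow,
        MonoidHom.transferCenterPow_apply, MonoidHom.one_apply, OneMemClass.coe_one]
      rw [← pow_mul, mul_comm, pow_mul, ht _ h, one_pow]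
    have h2 := congrArg Subtype.val (DFunLike.congr_fun h1 (z : closure T))
    simp only [MonoidHom.comp_apply, powMonoidHom_apply, SubgroupClass.coe_pow,
      MonoidHom.transferCenterPow_apply, MonoidHom.one_apply, OneMemClass.coe_one] at h2
    apply Subtype.ext
    rw [SubgroupClass.coe_pow, pow_mul, h2, OneMemClass.coe_one]
  have hrank : Group.rank (center (closure T)) ≤ n ^ N * N :=
    (rank_le_index_mul_rank _).trans
      (Nat.mul_le_mul hr ((rank_closure_finite_le_nat_card T).trans hN))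
  have hpos : 0 < (center (closure T)).index * e := Nat.mul_pos hr0 (Nat.pos_of_ne_zero he)
  have h3 := Nat.le_of_dvd (pow_pos hpos _) (card_dvd_exponent_pow_rank' _ hexp)
  rw [← (center (closure T)).index_mul_card]
  exact Nat.mul_le_mul hr (h3.trans ((Nat.pow_le_pow_right hpos hrank).trans
    (Nat.pow_le_pow_left (Nat.mul_le_mul_right _ hr) _)))

variable {A : Type*} [Group A] (φ : A →* MulAut G)

theorem inv_inf {H K : Subgroup G} (hH : Inv φ ⊤ H) (hK : Inv φ ⊤ K) : Inv φ ⊤ (H ⊓ K) :=
  fun b hb h hh => ⟨hH b hb h hh.1, hK b hb h hh.2⟩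

theorem inv_sup {H K : Subgroup G} (hH : Inv φ ⊤ H) (hK : Inv φ ⊤ K) : Inv φ ⊤ (H ⊔ K) := by
  rw [inv_iff_map_eq] at *
  intro b hb
  rw [Subgroup.map_sup, hH b hb, hK b hb]

theorem inv_norm {H : Subgroup G} (hH : Inv φ ⊤ H) : Inv φ ⊤ (normalizer (H : Set G)) := by
  intro b hb g hg
  rw [mem_normalizer_iff] at hg ⊢
  intro h
  have e : ∀ y, φ b y ∈ H ↔ y ∈ H := fun y => ⟨fun h => by
    simpa using hH b⁻¹ (mem_top _) _ h, hH b hb y⟩
  obtain ⟨y, rfl⟩ := (φ b).surjective h
  rw [e, hg, ← e]
  simp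

theorem inv_fix [IsMulCommutative A] (C : Subgroup A) : Inv φ ⊤ (fixSub φ C) := by
  intro b _ g hg c hc
  rw [← MulAut.mul_apply, ← map_mul, mul_comm, map_mul, MulAut.mul_apply, hg c hc]

/-- Cocyclic subgroups. -/
def Co (C : Subgroup A) : Prop := ∃ a, C ⊔ zpowers a = ⊤

theorem le_of_co [Finite A] [Finite G] [IsMulCommutative A]
    (hcop : (Nat.card A).Coprime (Nat.card G)) {H : Subgroup G} (hH : Inv φ ⊤ H) (L : Subgroup G)
    (hL : ∀ C, Co C → H ⊓ fixSub φ C ≤ L) : H ≤ L :=
  act_le_of_forall_cocyclic φ hH (coprime_sub hcop _ _) L fun C a _ h => hL C ⟨a, h⟩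

open Classical in
theorem relIndex_le_prod [Fintype (Subgroup A)] [Finite A] [Finite G] [IsMulCommutative A]
    (hcop : (Nat.card A).Coprime (Nat.card G)) {P : Subgroup G} [Group.IsNilpotent P]
    (hP : Inv φ ⊤ P) (n : ℕ) : ∀ H ≤ P, Inv φ ⊤ H → H.relIndex P = n →
      H.relIndex P ≤ ∏ C ∈ Finset.univ.filter Co, H.relIndex (P ⊓ fixSub φ C) := by
  have hne : ∀ H K : Subgroup G, H.relIndex K ≠ 0 := fun H K => index_ne_zero_of_finite
  induction n using Nat.strong_induction_on with
  | _ n ih =>
  intro H hHP hH hn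
  rcases hHP.eq_or_lt with rfl | hlt
  · rw [relIndex_self]
    exact Finset.one_le_prod' fun C _ => Nat.pos_of_ne_zero (hne _ _)
  have hN := inv_inf φ hP (inv_norm φ hH)
  obtain ⟨C, hC, hCH⟩ : ∃ C, Co C ∧ ¬ P ⊓ normalizer (H : Set G) ⊓ fixSub φ C ≤ H := by
    by_contra h
    push Not at h
    exact (lt_inf_normalizer_of_isNilpotent hlt).not_ge (le_of_co φ hcop hN H h)
  set U := P ⊓ normalizer (H : Set G) ⊓ fixSub φ C with hU
  have hUP : U ≤ P := inf_le_left.trans inf_le_left
  have hKP : U ⊔ H ≤ P := sup_le hUP hHP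
  have h1 : H.relIndex (U ⊔ H) = H.relIndex U := by
    have h2 := card_sup_mul_card_inf_of_le_normalizer
      (show U ≤ normalizer (H : Set G) from inf_le_left.trans inf_le_right)
    rw [← card_mul_relIndex (le_sup_right : H ≤ U ⊔ H), ← card_inf_mul_relIndex H U, inf_comm H]
      at h2
    have h3 : 0 < Nat.card H * Nat.card (U ⊓ H : Subgroup G) := Nat.mul_pos Nat.card_pos Nat.card_pos
    refine Nat.eq_of_mul_eq_mul_left h3 ?_
    linarith
  have h2 := relIndex_mul_relIndex H (U ⊔ H) P le_sup_right hKP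
  have h3 : 1 < H.relIndex (U ⊔ H) := by
    rw [h1]
    exact Nat.one_lt_iff_ne_zero_and_ne_one.mpr ⟨hne _ _, fun e => hCH (relIndex_eq_one.mp e)⟩
  have h4 := ih _ (by
    rw [← hn, ← h2]; exact lt_mul_of_one_lt_left (Nat.pos_of_ne_zero (hne _ _)) h3) (U ⊔ H) hKP
    (inv_sup φ (inv_inf φ hN (inv_fix φ C)) hH) rfl
  have hCm : C ∈ Finset.univ.filter Co := by simpa using hC
  rw [← h2, ← Finset.mul_prod_erase _ _ hCm]
  rw [← Finset.mul_prod_erase _ _ hCm] at h4
  refine (Nat.mul_le_mul_left _ h4).trans ?_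
  rw [← mul_assoc]
  refine Nat.mul_le_mul ?_ (Finset.prod_le_prod' fun D _ =>
    relIndex_le_of_le_left le_sup_right (hne _ _))
  have h5 := relIndex_inf_mul_relIndex H (U ⊔ H) (P ⊓ fixSub φ C)
  rw [inf_eq_left.mpr (le_sup_right : H ≤ U ⊔ H)] at h5
  rw [← h5, h1]
  exact Nat.mul_le_mul_right _ (relIndex_le_of_le_right
    (le_inf le_sup_left (le_inf hUP inf_le_right)) (hne _ _))

theorem relIndex_cent_le [Finite G] {D U : Subgroup G} (hU : U ≤ D) {y : G} (hy : y ∈ D) :
    (centralizer {y}).relIndex U ≤ Nat.card (commutator D) := by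
  refine (relIndex_le_of_le_right hU index_ne_zero_of_finite).trans ?_
  have h1 : (centralizer {y}).subgroupOf D = centralizer {(⟨y, hy⟩ : D)} := by
    ext x
    rw [mem_subgroupOf, mem_centralizer_singleton_iff, mem_centralizer_singleton_iff,
      Subtype.ext_iff]
    rfl
  rw [relIndex, h1]
  refine (Finite.card_le_of_embedding (quotientCentralizerEmbedding (⟨y, hy⟩ : D))).trans ?_
  refine Nat.card_mono (Set.toFinite _) ?_
  rw [commutator_eq_closure]
  exact subset_closure

theorem card_conj (a : G) : Nat.card (conjugatesOf a) = (centralizer {a}).index := by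
  have h : conjugatesOf a = MulAction.orbit (ConjAct G) a := by
    ext b
    rw [ConjAct.mem_orbit_conjAct]
    exact isConj_comm
  rw [h, Nat.card_congr (MulAction.orbitEquivQuotientStabilizer (ConjAct G) a),
    Nat.card_congr (quotientEquivOfEq (ConjAct.stabilizer_eq_centralizer a))]
  rfl

theorem index_dvd_factorial [Finite G] {H : Subgroup G} {n : ℕ}
    (h : ∀ p : ℕ, p.Prime → ∃ P, IsSylowOf p P ⊤ ∧ H.relIndex P ≤ n) : H.index ∣ n.factorial := by
  refine (Nat.dvd_iff_prime_pow_dvd_dvd _ _).mpr fun p k hp hk => ?_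
  obtain ⟨P, hP, hn⟩ := h p hp
  have h1 : H.index ∣ H.relIndex P * P.index := by
    rw [← inf_relIndex_right, relIndex_mul_index inf_le_right]
    exact index_dvd_of_le inf_le_left
  have h2 : (p ^ k).Coprime P.index := by
    have := hP.not_dvd
    rw [relIndex_top_right] at this
    exact ((Nat.Prime.coprime_iff_not_dvd hp).mpr this).pow_left k
  exact (h2.dvd_of_dvd_mul_right (hk.trans h1)).trans
    (Nat.dvd_factorial (Nat.pos_of_ne_zero index_ne_zero_of_finite) hn)

theorem main [Finite A] [Finite G] [IsMulCommutative A] (hcop : (Nat.card A).Coprime (Nat.card G))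
    (hA : ∀ C D : Subgroup A, Co C → Co D → C ⊓ D ≠ ⊥) {m k : ℕ} (hk : Nat.card A = k)
    (hm : ∀ a : A, a ≠ 1 → Nat.card (commutator (fixSub φ (zpowers a))) ≤ m) (hm0 : m ≠ 0) :
    let n := ((m ^ k) ^ 2 ^ k).factorial
    let N := k * m * n
    Nat.card (commutator G) ≤ n ^ N * (n ^ N * m.factorial) ^ (n ^ N * N) := by
  classical
  intro n N
  have := Fintype.ofFinite A
  have := Fintype.ofFinite (Subgroup A)
  have hco : ∀ C D : Subgroup A, Co C → Co D → ∃ a : A, a ≠ 1 ∧
      fixSub φ C ≤ fixSub φ (zpowers a) ∧ fixSub φ D ≤ fixSub φ (zpowers a) := by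
    intro C D hC hD
    obtain ⟨⟨a, ha⟩, ha1⟩ := ne_bot_iff_exists_ne_one.mp (hA C D hC hD)
    exact ⟨a, fun e => ha1 (Subtype.ext e), fun g hg b hb => hg b (zpowers_le_of_mem ha.1 hb),
      fun g hg b hb => hg b (zpowers_le_of_mem ha.2 hb)⟩
  have hcl : ∀ C, Co C → ∀ x ∈ fixSub φ C, (centralizer {x}).index ≤ n := by
    intro C hC x hx
    let H : Subgroup G := ⨅ a : A, centralizer {φ a x}
    have hH : Inv φ ⊤ H := by
      intro b _ g hg
      refine mem_iInf.mpr fun a => mem_centralizer_singleton_iff.mpr ?_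
      have := congrArg (φ b) (mem_centralizer_singleton_iff.mp (mem_iInf.mp hg (b⁻¹ * a)))
      simpa using this
    have h1 : H.index ∣ n := index_dvd_factorial fun p hp => by
      have := Fact.mk hp
      obtain ⟨P, hP, hPi⟩ := act_exists_inv_isSylowOf φ (inv_top φ ⊤) (coprime_sub hcop ⊤ ⊤)
        (Or.inl inferInstance) p
      have := hP.isPGroup.isNilpotent
      refine ⟨P, hP, ?_⟩
      rw [← inf_relIndex_right]
      refine (relIndex_le_prod φ hcop hPi _ _ inf_le_right (inv_inf φ hH hPi) rfl).trans ?_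
      refine (Finset.prod_le_pow_card _ _ (m ^ k) fun D hD => ?_).trans ?_
      · obtain ⟨a, ha, h1, h2⟩ := hco C D hC (by simpa using hD)
        rw [← inf_relIndex_right, inf_assoc, ← inf_assoc P, inf_idem, inf_relIndex_right]
        refine (relIndex_iInf_le _).trans ((Finset.prod_le_pow_card _ _ m fun b _ => ?_).trans ?_)
        · exact (relIndex_cent_le (inf_le_right.trans h2)
            (h1 (inv_fix φ C b (mem_top b) x hx))).trans (hm a ha)
        · rw [Finset.card_univ, ← Nat.card_eq_fintype_card, hk]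
      · refine Nat.pow_le_pow_right (pow_pos (Nat.pos_of_ne_zero hm0) _) ?_
        refine (Finset.card_le_univ _).trans ?_
        rw [← hk, Nat.card_eq_fintype_card, ← Fintype.card_set]
        exact Fintype.card_le_of_injective _ SetLike.coe_injective
    refine (Nat.le_of_dvd (Nat.pos_of_ne_zero index_ne_zero_of_finite) (index_dvd_of_le ?_)).trans
      (Nat.le_of_dvd (Nat.factorial_pos _) h1)
    exact (iInf_le _ 1).trans (by simp)
  let E : A → Subgroup G := fun a => ⁅fixSub φ (zpowers a), fixSub φ (zpowers a)⁆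
  have hE : ∀ a, a ≠ 1 → Nat.card (E a) ≤ m := fun a ha => by
    simp only [E]
    rw [← map_subtype_commutator, card_map_of_injective (subtype_injective _)]
    exact hm a ha
  let S : Set G := {s | (∃ a, a ≠ 1 ∧ s ∈ E a) ∧ ∃ C, Co C ∧ s ∈ fixSub φ C}
  have hES : ∀ a, a ≠ 1 → E a ≤ normalClosure S := fun a ha => by
    refine le_of_co φ hcop ?_ _ fun C hC s hs => subset_normalClosure ⟨⟨a, ha, hs.1⟩, C, hC, hs.2⟩
    rw [inv_iff_map_eq]
    intro b hb
    simp only [E]
    rw [map_commutator, (inv_fix φ _).map_eq hb]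
  have hG : commutator G ≤ normalClosure S := by
    let π := QuotientGroup.mk' (normalClosure S)
    have h1 : ∀ D, Co D → ∀ y ∈ fixSub φ D, ∀ x, π x * π y = π y * π x := by
      intro D hD y hy x
      have := le_of_co φ hcop (inv_top φ ⊤) ((centralizer {π y}).comap π) fun C hC x hx => by
        obtain ⟨a, ha, h1, h2⟩ := hco C D hC hD
        have h3 := (QuotientGroup.eq_one_iff _).mpr
          (hES a ha (commutator_mem_commutator (h1 hx.2) (h2 hy)))
        rw [mem_comap, mem_centralizer_singleton_iff, ← commutatorElement_eq_one_iff_mul_comm,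
          ← map_commutatorElement]
        exact h3
      exact mem_centralizer_singleton_iff.mp (this (mem_top x))
    rw [commutator_def, commutator_le]
    intro x _ y _
    have := le_of_co φ hcop (inv_top φ ⊤) ((centralizer {π x}).comap π) fun D hD y hy =>
      mem_centralizer_singleton_iff.mpr (h1 D hD y hy.2 x).symm
    have h2 := mem_centralizer_singleton_iff.mp (this (mem_top y))
    rw [← QuotientGroup.eq_one_iff]
    change π _ = 1
    rw [map_commutatorElement, commutatorElement_eq_one_iff_mul_comm, h2]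
  refine (card_le_of_le hG).trans (diet (Group.conjugatesOfSet S) ?_ (Nat.factorial_ne_zero m)
    ?_ (Nat.factorial_ne_zero _) ?_)
  · have hS : S.ncard ≤ k * m := by
      have h1 : S ⊆ ⋃ a ∈ (Finset.univ.filter fun a : A => a ≠ 1), (E a : Set G) := by
        rintro s ⟨⟨a, ha, hs⟩, -⟩
        simp only [Set.mem_iUnion]
        exact ⟨a, by simpa using ha, hs⟩
      refine (Set.ncard_le_ncard h1).trans ((Finset.set_ncard_biUnion_le _ _).trans ?_)
      refine (Finset.sum_le_card_nsmul _ _ m fun a ha => ?_).trans ?_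
      · rw [← Nat.card_coe_set_eq]
        exact hE a (by simpa using ha)
      · rw [smul_eq_mul, ← hk, Nat.card_eq_fintype_card]
        exact Nat.mul_le_mul_right _ (Finset.card_le_univ _)
    have h1 : Group.conjugatesOfSet S = ⋃ s ∈ S.toFinite.toFinset, conjugatesOf s := by
      simp [Group.conjugatesOfSet]
    rw [Nat.card_coe_set_eq, h1]
    refine (Finset.set_ncard_biUnion_le _ _).trans
      ((Finset.sum_le_card_nsmul _ _ n fun s hs => ?_).trans ?_)
    · obtain ⟨-, C, hC, hs⟩ := S.toFinite.mem_toFinset.mp hs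
      refine le_trans (le_of_eq ?_) (hcl C hC s hs)
      rw [← Nat.card_coe_set_eq, card_conj]
    · rw [smul_eq_mul, ← Set.ncard_eq_toFinset_card S]
      exact Nat.mul_le_mul_right _ hS
  · intro t ht
    obtain ⟨s, ⟨-, C, hC, hs⟩, hc⟩ := Group.mem_conjugatesOfSet_iff.mp ht
    obtain ⟨g, rfl⟩ := isConj_iff.mp hc
    refine le_trans (le_of_eq ?_) (hcl C hC s hs)
    rw [← index_smul (MulAut.conj g) (centralizer {s})]
    congr 1
    ext x
    rw [mem_conj_smul_iff, mem_centralizer_singleton_iff, mem_centralizer_singleton_iff]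
    constructor
    · intro h
      calc g⁻¹ * x * g * s = g⁻¹ * (x * (g * s * g⁻¹)) * g := by group
        _ = _ := by rw [h]; group
    · intro h
      calc x * (g * s * g⁻¹) = g * (g⁻¹ * x * g * s) * g⁻¹ := by group
        _ = _ := by rw [h]; group
  · intro t ht
    obtain ⟨s, ⟨⟨a, ha, hs⟩, -⟩, hc⟩ := Group.mem_conjugatesOfSet_iff.mp ht
    obtain ⟨g, rfl⟩ := isConj_iff.mp hc
    rw [conj_pow, orderOf_dvd_iff_pow_eq_one.mp ((Subgroup.orderOf_dvd_natCard _ hs).trans
      (Nat.dvd_factorial Nat.card_pos (hE a ha))), mul_one, mul_inv_cancel]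

end CF.Bfc
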